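import Mathlib
import Cfsg.Agent.Lib.Frobenius.Zass.Half

/-!
# Non-solvable sharply transitive linear groups
-/

set_option autoImplicit false
set_option linter.style.haveILetI false

namespace Cfsg.Agent.Lib.Frobenius.Zass

open Subgroup
open scoped MatrixGroups

theorem not_pp_119 : ¬ IsPrimePow 119 := by
  intro h
  obtain ⟨q, k, hq, hk, he⟩ := (isPrimePow_nat_iff _).mp h
  have h7 : 7 ∣ q ^ k := by rw [he]; norm_num
  have h17 : 17 ∣ q ^ k := by rw [he]; norm_num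
  have a := (Nat.prime_dvd_prime_iff_eq (by norm_num) hq).mp (Nat.Prime.dvd_of_dvd_pow (by norm_num) h7)
  have b := (Nat.prime_dvd_prime_iff_eq (by norm_num) hq).mp (Nat.Prime.dvd_of_dvd_pow (by norm_num) h17)
  omega

theorem arith_sharp {u c ε : ℕ} (hu : 2 ≤ u) (hpp : IsPrimePow u) (hc0 : 0 < c) (hc : c ∣ u - 1)
    (hc30 : c.Coprime 30) (hε : ε = 1 ∨ ε = 2) (h : u ^ 2 - 1 = ε * 120 * c) :
    (u = 11 ∧ c = 1 ∧ ε = 1) ∨ (u = 29 ∧ c = 7 ∧ ε = 1) ∨ (u = 59 ∧ c = 29 ∧ ε = 1) := by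
  have h0 := h
  obtain ⟨a, ha⟩ := hc
  have hu1 : u ^ 2 - 1 = (u - 1) * (u + 1) := by
    obtain ⟨v, rfl⟩ : ∃ v, u = v + 1 := ⟨u - 1, by omega⟩
    simp only [Nat.add_sub_cancel]
    have : (v + 1) ^ 2 = v * (v + 1 + 1) + 1 := by ring
    omega
  rw [hu1, ha] at h
  have h1 : a * (u + 1) = ε * 120 := by
    have h2 : c * (a * (u + 1)) = c * (ε * 120) := by
      calc c * (a * (u + 1)) = c * a * (u + 1) := by ring
        _ = ε * 120 * c := h
        _ = c * (ε * 120) := by ring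
    exact Nat.eq_of_mul_eq_mul_left hc0 h2
  have hd : u + 1 ∣ 240 := by
    have h2 : u + 1 ∣ ε * 120 := ⟨a, by rw [← h1]; ring⟩
    rcases hε with rfl | rfl
    · exact h2.trans (by norm_num)
    · exact h2
  have hmem : u + 1 ∈ Nat.divisors 240 := Nat.mem_divisors.mpr ⟨hd, by norm_num⟩
  have hdiv : Nat.divisors 240 = {1, 2, 3, 4, 5, 6, 8, 10, 12, 15, 16, 20, 24, 30, 40, 48, 60, 80, 120, 240} := by decide
  rw [hdiv] at hmem
  have hc2 : c % 2 ≠ 0 := by
    intro h3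
    have h4 : 2 ∣ Nat.gcd c 30 := Nat.dvd_gcd (Nat.dvd_of_mod_eq_zero h3) (by norm_num)
    rw [hc30] at h4
    omega
  have hc3 : c % 3 ≠ 0 := by
    intro h3
    have h4 : 3 ∣ Nat.gcd c 30 := Nat.dvd_gcd (Nat.dvd_of_mod_eq_zero h3) (by norm_num)
    rw [hc30] at h4
    omega
  have hc5 : c % 5 ≠ 0 := by
    intro h3
    have h4 : 5 ∣ Nat.gcd c 30 := Nat.dvd_gcd (Nat.dvd_of_mod_eq_zero h3) (by norm_num)
    rw [hc30] at h4
    omega
  have h119 : u ≠ 119 := by
    rintro rfl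
    exact not_pp_119 hpp
  clear ha h hu1 h1 hd hpp hc30
  simp only [Finset.mem_insert, Finset.mem_singleton] at hmem
  have key : u = 0 ∨ u = 1 ∨ u = 2 ∨ u = 3 ∨ u = 4 ∨ u = 5 ∨ u = 7 ∨ u = 9 ∨ u = 11 ∨ u = 14 ∨ u = 15 ∨
      u = 19 ∨ u = 23 ∨ u = 29 ∨ u = 39 ∨ u = 47 ∨ u = 59 ∨ u = 79 ∨ u = 119 ∨ u = 239 := by omega
  rcases key with rfl | rfl | rfl | rfl | rfl | rfl | rfl | rfl | rfl | rfl | rfl | rfl | rfl | rfl |
    rfl | rfl | rfl | rfl | rfl | rfl <;> norm_num at h0 <;> rcases hε with rfl | rfl <;> omega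

/-- The order of an internal direct product. -/
theorem card_sup_of_disjoint {G : Type*} [Group G] [Finite G] {S M : Subgroup G} [S.Normal]
    (h : S ⊓ M = ⊥) : Nat.card (S ⊔ M : Subgroup G) = Nat.card S * Nat.card M := by
  have h1 : S.relIndex (S ⊔ M) = S.relIndex M := relIndex_sup_left M S
  have h2 : Nat.card S * S.relIndex (S ⊔ M) = Nat.card (S ⊔ M : Subgroup G) := by
    have h5 := (S.subgroupOf (S ⊔ M)).card_mul_index
    rwa [Nat.card_congr (subgroupOfEquivOfLe le_sup_left).toEquiv] at h5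
  have h3 : S.relIndex M = Nat.card M := by
    have h4 : S.subgroupOf M = ⊥ := by
      rw [eq_bot_iff]
      intro x hx
      have h5 : (x : G) ∈ S ⊓ M := mem_inf.mpr ⟨mem_subgroupOf.mp hx, x.2⟩
      rw [h, mem_bot] at h5
      exact (mem_bot).mpr (Subtype.ext h5)
    rw [relIndex, h4, index_bot]
  rw [← h2, h1, h3]

/-- The isomorphism with a direct product. -/
theorem nonempty_equiv_prod {G : Type*} [Group G] [Finite G] {S M : Subgroup G} [S.Normal]
    (h : S ⊓ M = ⊥) (hc : ∀ s ∈ S, ∀ x ∈ M, s * x = x * s) (htop : S ⊔ M = ⊤) :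
    Nonempty (S × M ≃* G) := by
  let f : S × M →* G := MonoidHom.noncommCoprod S.subtype M.subtype
    (fun a b => hc a a.2 b b.2)
  have hf : ∀ a b, f (a, b) = (a : G) * b := fun _ _ => rfl
  have hinj : Function.Injective f := by
    rw [injective_iff_map_eq_one]
    rintro ⟨a, b⟩ hab
    rw [hf] at hab
    have h1 : (a : G) = (b : G)⁻¹ := eq_inv_of_mul_eq_one_left hab
    have h2 : (a : G) ∈ S ⊓ M := mem_inf.mpr ⟨a.2, by rw [h1]; exact inv_mem b.2⟩
    rw [h, mem_bot] at h2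
    have h3 : (b : G) = 1 := by
      rw [h2, one_mul] at hab
      exact hab
    exact Prod.ext (Subtype.ext h2) (Subtype.ext h3)
  have hcard : Nat.card (S × M) = Nat.card G := by
    have h1 := card_sup_of_disjoint h
    rw [htop, Subgroup.card_top] at h1
    rw [Nat.card_prod, h1]
  exact ⟨MulEquiv.ofBijective f ((Nat.bijective_iff_injective_and_card f).mpr ⟨hinj, hcard⟩)⟩

end Cfsg.Agent.Lib.Frobenius.Zass
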